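import Mathlib
import Cfsg.Agent.Mult.TwE

/-! Root elements, unipotent subgroups and the torus of `²E₆(2)`. -/

set_option autoImplicit false
set_option linter.unusedSectionVars false
set_option backward.isDefEq.respectTransparency false
set_option maxRecDepth 100000

namespace Cfsg.Agent.TrX
open Subgroup Cfsg.Lie Cfsg.Agent.Chev Cfsg.Agent.BN StSys Tw Cfsg.Agent.Mult
attribute [local instance] good2E6

universe u
variable {K : Type u} [Field K] [Fintype K]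

theorem pp_E6 : ∀ r : Rt chevE6, symE6.p (symE6.p r) = r := by decide +kernel

theorem so_E6 : ∀ r : Rt chevE6, symE6.p r ≠ r → SO chevE6 r (symE6.p r) := by decide +kernel

theorem two_zero (hK : Fintype.card K = 4) : (2 : K) = 0 := by
  have h := FiniteField.cast_card_eq_zero K
  rw [hK] at h
  have : (2 : K) * 2 = 0 := by rw [← h]; norm_num
  exact mul_self_eq_zero.1 this

theorem exists_C (hK : Fintype.card K = 4) : Nonempty (CE6 K 2) :=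
  exists_CE6 Nat.prime_two.isPrimePow hK

theorem φ_eq (hK : Fintype.card K = 4) (C : CE6 K 2) (r : Rt chevE6) (t : K) : C.T.φ r t = t ^ 2 := by
  have h : sgn (bit gEE6 r) 1 = 1 ∨ sgn (bit gEE6 r) 1 = -1 := by revert r; decide +kernel
  rw [C.hT, C.hψ]
  rcases h with h | h <;> rw [h]
  · simp
  · push_cast; linear_combination (-t ^ 2) * two_zero hK

theorem pow_four (hK : Fintype.card K = 4) (t : K) : (t ^ 2) ^ 2 = t := by
  rw [← pow_mul, show 2 * 2 = Fintype.card K from hK.symm, FiniteField.pow_card]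

variable (hK : Fintype.card K = 4)
include hK

theorem mem1 {r : Rt chevE6} (h : symE6.p r = r) : (glSys chevE6 K).x r 1 ∈ twistedE6 K 2 := by
  obtain ⟨C⟩ := exists_C hK
  rw [C.eq_Fx, x_mem_Fx h, φ_eq hK, one_pow]

theorem mem2 {r : Rt chevE6} (h : symE6.p r ≠ r) (t : K) :
    (glSys chevE6 K).x r t * (glSys chevE6 K).x (symE6.p r) (t ^ 2) ∈ twistedE6 K 2 := by
  obtain ⟨C⟩ := exists_C hK
  rw [C.eq_Fx, ← φ_eq hK C r t]
  exact two_mem rfl (pp_E6 r) ((so_E6 r h).x _) (by rw [φ_eq hK, φ_eq hK, pow_four hK])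

theorem Uw_le {L : Subgroup (GL chevE6.Idx K)} {w : W chevE6} (hw : symE6.ρ w = w)
    (h1 : ∀ r ∈ invs w, symE6.p r = r → (glSys chevE6 K).x r 1 ∈ L)
    (h2 : ∀ r ∈ invs w, symE6.p r ≠ r → ∀ t,
      (glSys chevE6 K).x r t * (glSys chevE6 K).x (symE6.p r) (t ^ 2) ∈ L) :
    twistedE6 K 2 ⊓ (glSys chevE6 K).Uw w ≤ L := by
  obtain ⟨C⟩ := exists_C hK
  have hT : IsTw C.T orbE6 C.T.Fx := C.eq_Fx ▸ C.isTw
  rw [C.eq_Fx]
  refine Uw_gen hT hw L fun b hb => ?_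
  obtain ⟨⟨v, hv⟩, a⟩ := b
  have hp : ∀ r, symE6.p (v • r) = v • symE6.p r := fun r => by
    rw [← symE6.ρ_smul, orbE6.mem_C.1 hv]
  have k1 : ∀ i : Ix chevE6, symE6.π i = i →
      (∀ s, s ∈ [sim i] ↔ s ∈ {r | Pos r ∧ PhiK (orbE6.J a) r}) →
      C.T.Fx ⊓ (glSys chevE6 K).XS (RS (O := orbE6) ⟨⟨v, hv⟩, a⟩) ≤ L := fun i hi hJ y hy => by
    have e : RS (O := orbE6) ⟨⟨v, hv⟩, a⟩ = {v • sim i} := by
      ext r
      change v⁻¹ • r ∈ {r | Pos r ∧ PhiK (orbE6.J a) r} ↔ _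
      rw [← hJ, List.mem_singleton, inv_smul_eq_iff, Set.mem_singleton_iff]
    have e1 : symE6.p (v • sim i) = v • sim i := by rw [hp, symE6.p_sim, hi]
    rw [e] at hy hb
    obtain ⟨t, ht, rfl⟩ := (mem_one e1).1 hy
    rw [φ_eq hK] at ht
    rcases eq_or_ne t 0 with rfl | h0
    · simp
    · obtain rfl : t = 1 := mul_left_cancel₀ h0 (by rw [mul_one, ← pow_two, ht])
      exact h1 _ (hb _ rfl) e1
  have k2 : ∀ i j : Ix chevE6, i ≠ j → symE6.π i = j → symE6.π j = i →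
      (∀ s, s ∈ [sim i, sim j] ↔ s ∈ {r | Pos r ∧ PhiK (orbE6.J a) r}) →
      C.T.Fx ⊓ (glSys chevE6 K).XS (RS (O := orbE6) ⟨⟨v, hv⟩, a⟩) ≤ L := fun i j hij hi hj hJ y hy => by
    have e : ∀ r, r ∈ [v • sim i, v • sim j] ↔ r ∈ RS (O := orbE6) ⟨⟨v, hv⟩, a⟩ := fun r => by
      change _ ↔ v⁻¹ • r ∈ {r | Pos r ∧ PhiK (orbE6.J a) r}
      rw [← hJ]
      simp only [List.mem_cons, List.not_mem_nil, or_false, inv_smul_eq_iff]
    have e1 : symE6.p (v • sim i) = v • sim j := by rw [hp, symE6.p_sim, hi]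
    have e2 : symE6.p (v • sim j) = v • sim i := by rw [hp, symE6.p_sim, hj]
    have hne : v • sim i ≠ v • (sim j : Rt chevE6) := fun h => hij (sim_injective (smul_left_cancel v h))
    have hne' : symE6.p (v • sim i) ≠ v • sim i := e1 ▸ hne.symm
    obtain ⟨t, rfl⟩ := mem_two (uni_RS _).choose_spec e hne e1 e2 (e1 ▸ (so_E6 _ hne').x _) hy
    rw [φ_eq hK, ← e1]
    exact h2 _ (hb _ ((e _).1 (by simp))) hne' t
  fin_cases a
  · exact k1 _ (π_E6 1) J0_E6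
  · exact k1 _ (π_E6 3) J1_E6
  · exact k2 _ _ (by decide) (π_E6 2) (π_E6 4) J2_E6
  · exact k2 _ _ (by decide) (π_E6 0) (π_E6 5) J3_E6

/-- form (a): the unipotent subgroup is generated by the standard root elements -/
theorem U_le {L : Subgroup (GL chevE6.Idx K)}
    (h1 : ∀ r, Pos r → symE6.p r = r → (glSys chevE6 K).x r 1 ∈ L)
    (h2 : ∀ r, Pos r → symE6.p r ≠ r → ∀ t,
      (glSys chevE6 K).x r t * (glSys chevE6 K).x (symE6.p r) (t ^ 2) ∈ L) :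
    (glSys chevE6 K).U ⊓ twistedE6 K 2 ≤ L := by
  rw [inf_comm, ← IsTw.Uw_w0]
  exact Uw_le hK orbE6.fold.w0_univ_mem (fun r hr => h1 r (mem_invs.1 hr).1) fun r hr => h2 r (mem_invs.1 hr).1

omit hK in
theorem mem_of_conj {n x : GL chevE6.Idx K} {w : W chevE6} (hm : (glSys chevE6 K).Mono n w)
    (hx : x ∈ (glSys chevE6 K).U) (h : n * x * n⁻¹ ∈ (glSys chevE6 K).U) :
    x ∈ (glSys chevE6 K).XS {r | Pos r ∧ Pos (w • r)} := by
  obtain ⟨y, hy, z, hz, rfl⟩ := exists_U_split w hx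
  have h1 : n * y * n⁻¹ ∈ (glSys chevE6 K).U := hm.conj_mem (fun r hr => hr.2) hy
  have h2 : n * z * n⁻¹ ∈ (glSys chevE6 K).V := hm.conj_mem (fun r hr => (mem_invs.1 hr).2) hz
  have h3 : n * z * n⁻¹ ∈ (glSys chevE6 K).U := by
    simpa [mul_assoc] using mul_mem (inv_mem h1) h
  have h4 := one_of_mem_B_V ((glSys chevE6 K).U_le_B h3) h2
  obtain rfl : z = 1 := by simpa using h4
  simpa using hy

theorem U_le_conj {L : Subgroup (GL chevE6.Idx K)} {n : GL chevE6.Idx K} {w : W chevE6}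
    (hm : (glSys chevE6 K).Mono n w) (hw : symE6.ρ w = w)
    (h1 : ∀ r, Pos r → Pos (w • r) → symE6.p r = r → (glSys chevE6 K).x r 1 ∈ L)
    (h2 : ∀ r, Pos r → Pos (w • r) → symE6.p r ≠ r → ∀ t,
      (glSys chevE6 K).x r t * (glSys chevE6 K).x (symE6.p r) (t ^ 2) ∈ L) :
    ∀ x ∈ (glSys chevE6 K).U ⊓ twistedE6 K 2, n * x * n⁻¹ ∈ (glSys chevE6 K).U → x ∈ L := fun x hx h => by
  have e : ∀ r, r ∈ invs (w0 Set.univ * w) ↔ Pos r ∧ Pos (w • r) := fun r => by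
    rw [mem_invs, mul_smul, pos_w0_univ, not_not]
  refine Uw_le hK (w := w0 Set.univ * w) (mul_mem orbE6.fold.w0_univ_mem (orbE6.mem_C.2 hw) :
    _ ∈ orbE6.fold.C) (fun r hr => h1 r ((e r).1 hr).1 ((e r).1 hr).2)
    (fun r hr => h2 r ((e r).1 hr).1 ((e r).1 hr).2) ⟨hx.2, ?_⟩
  exact (glSys chevE6 K).XS_mono (fun r hr => (e r).2 hr) (mem_of_conj hm hx.1 h)

theorem n1_mem {i : Fin 6} (hi : i ∈ [(1 : Fin 6), 3]) :
    (glSys chevE6 K).n (sim (nE6 i)) 1 ∈ twistedE6 K 2 := by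
  have h : symE6.p (sim (nE6 i)) = sim (nE6 i) := by revert i; decide +kernel
  have h' : symE6.p (ng (sim (nE6 i))) = ng (sim (nE6 i)) := by rw [symE6.p_ng, h]
  have e : -(1 : K)⁻¹ = 1 := by rw [inv_one]; linear_combination -two_zero hK
  rw [StSys.n, e]
  exact mul_mem (mul_mem (mem1 hK h) (mem1 hK h')) (mem1 hK h)

theorem n2_mem {p : Fin 6 × Fin 6} (hp : p ∈ [((0 : Fin 6), (5 : Fin 6)), (2, 4)]) :
    (glSys chevE6 K).n (sim (nE6 p.1)) 1 * (glSys chevE6 K).n (sim (nE6 p.2)) 1 ∈ twistedE6 K 2 := by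
  obtain ⟨C⟩ := exists_C hK
  have h : symE6.p (sim (nE6 p.1)) = sim (nE6 p.2) ∧ symE6.p (sim (nE6 p.2)) = sim (nE6 p.1) ∧
      SO chevE6 (sim (nE6 p.1)) (sim (nE6 p.2)) := by revert p; decide +kernel
  have m : ∀ r, (glSys chevE6 K).n r 1 ∈ (glSys chevE6 K).grp := fun r =>
    (glSys chevE6 K).N_le_grp ((glSys chevE6 K).n_mem_N r one_ne_zero)
  rw [C.eq_Fx]
  refine ⟨mul_mem (m _) (m _), ?_⟩
  rw [C.T.f_mul _ (m _) _ (m _), C.T.f_n _ one_ne_zero, C.T.f_n _ one_ne_zero, φ_eq hK, φ_eq hK, one_pow,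
    h.1, h.2.1]
  exact (h.2.2.commute _ ((glSys chevE6 K).n_mem (by simp) (by simp) _)
    ((glSys chevE6 K).n_mem (by simp) (by simp) _)).symm

/-- form (b), one node -/
theorem U_le1 {L : Subgroup (GL chevE6.Idx K)} {i : Fin 6} (hi : i ∈ [(1 : Fin 6), 3])
    (h1 : ∀ r, r ≠ sim (nE6 i) → Pos r → symE6.p r = r → (glSys chevE6 K).x r 1 ∈ L)
    (h2 : ∀ r, r ≠ sim (nE6 i) → Pos r → symE6.p r ≠ r → ∀ t,
      (glSys chevE6 K).x r t * (glSys chevE6 K).x (symE6.p r) (t ^ 2) ∈ L) :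
    ∀ x ∈ (glSys chevE6 K).U ⊓ twistedE6 K 2, (glSys chevE6 K).n (sim (nE6 i)) 1 * x *
      ((glSys chevE6 K).n (sim (nE6 i)) 1)⁻¹ ∈ (glSys chevE6 K).U → x ∈ L := by
  obtain ⟨C⟩ := exists_C hK
  have hm := (glSys chevE6 K).mono_n_sim (nE6 i) one_ne_zero
  have k : ∀ r, Pos (sW (nE6 i) • r) → r ≠ sim (nE6 i) := fun r h e => by
    rw [e, sW_smul, rf_sim] at h; exact not_pos_ng_sim _ h
  exact U_le_conj hK hm (ρ_eq_of_mono (C.eq_Fx ▸ n1_mem hK hi) ((glSys chevE6 K).n_mem_N _ one_ne_zero) hm)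
    (fun r h h' => h1 r (k r h') h) fun r h h' => h2 r (k r h') h

/-- form (b), two nodes -/
theorem U_le2 {L : Subgroup (GL chevE6.Idx K)} {p : Fin 6 × Fin 6}
    (hp : p ∈ [((0 : Fin 6), (5 : Fin 6)), (2, 4)])
    (h1 : ∀ r, r ≠ sim (nE6 p.1) → r ≠ sim (nE6 p.2) → Pos r → symE6.p r = r → (glSys chevE6 K).x r 1 ∈ L)
    (h2 : ∀ r, r ≠ sim (nE6 p.1) → r ≠ sim (nE6 p.2) → Pos r → symE6.p r ≠ r → ∀ t,
      (glSys chevE6 K).x r t * (glSys chevE6 K).x (symE6.p r) (t ^ 2) ∈ L) :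
    ∀ x ∈ (glSys chevE6 K).U ⊓ twistedE6 K 2,
      (glSys chevE6 K).n (sim (nE6 p.1)) 1 * (glSys chevE6 K).n (sim (nE6 p.2)) 1 * x *
      ((glSys chevE6 K).n (sim (nE6 p.1)) 1 * (glSys chevE6 K).n (sim (nE6 p.2)) 1)⁻¹ ∈ (glSys chevE6 K).U →
      x ∈ L := by
  obtain ⟨C⟩ := exists_C hK
  have hm := ((glSys chevE6 K).mono_n_sim (nE6 p.1) one_ne_zero).mul
    ((glSys chevE6 K).mono_n_sim (nE6 p.2) one_ne_zero)
  have k0 : ¬ Pos (rf (nE6 p.1) (rf (nE6 p.2) (sim (nE6 p.1)))) ∧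
      ¬ Pos (rf (nE6 p.1) (rf (nE6 p.2) (sim (nE6 p.2)))) := by clear hm h1 h2; revert p; decide +kernel
  have k : ∀ r, Pos ((sW (nE6 p.1) * sW (nE6 p.2)) • r) → r ≠ sim (nE6 p.1) ∧ r ≠ sim (nE6 p.2) := fun r h =>
    ⟨fun e => k0.1 (by rwa [e, mul_smul] at h), fun e => k0.2 (by rwa [e, mul_smul] at h)⟩
  exact U_le_conj hK hm (ρ_eq_of_mono (C.eq_Fx ▸ n2_mem hK hp) (mul_mem ((glSys chevE6 K).n_mem_N _ one_ne_zero)
    ((glSys chevE6 K).n_mem_N _ one_ne_zero)) hm)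
    (fun r h h' => h1 r (k r h').1 (k r h').2 h) fun r h h' => h2 r (k r h').1 (k r h').2 h

/-- form (b) with the excluded set `T` -/
theorem U_le1' {L : Subgroup (GL chevE6.Idx K)} {i : Fin 6} (hi : i ∈ [(1 : Fin 6), 3])
    (h1 : ∀ r ∉ ({sim (nE6 i), sim (nE6 i)} : Set (Rt chevE6)), Pos r → symE6.p r = r → (glSys chevE6 K).x r 1 ∈ L)
    (h2 : ∀ r ∉ ({sim (nE6 i), sim (nE6 i)} : Set (Rt chevE6)), Pos r → symE6.p r ≠ r → ∀ t,
      (glSys chevE6 K).x r t * (glSys chevE6 K).x (symE6.p r) (t ^ 2) ∈ L) :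
    ∀ x ∈ (glSys chevE6 K).U ⊓ twistedE6 K 2, (glSys chevE6 K).n (sim (nE6 i)) 1 * x *
      ((glSys chevE6 K).n (sim (nE6 i)) 1)⁻¹ ∈ (glSys chevE6 K).U → x ∈ L :=
  U_le1 hK hi (fun r h => h1 r (by simpa using h)) fun r h => h2 r (by simpa using h)

/-- form (b) with the excluded set `T` -/
theorem U_le2' {L : Subgroup (GL chevE6.Idx K)} {p : Fin 6 × Fin 6}
    (hp : p ∈ [((0 : Fin 6), (5 : Fin 6)), (2, 4)])
    (h1 : ∀ r ∉ ({sim (nE6 p.1), sim (nE6 p.2)} : Set (Rt chevE6)), Pos r → symE6.p r = r →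
      (glSys chevE6 K).x r 1 ∈ L)
    (h2 : ∀ r ∉ ({sim (nE6 p.1), sim (nE6 p.2)} : Set (Rt chevE6)), Pos r → symE6.p r ≠ r → ∀ t,
      (glSys chevE6 K).x r t * (glSys chevE6 K).x (symE6.p r) (t ^ 2) ∈ L) :
    ∀ x ∈ (glSys chevE6 K).U ⊓ twistedE6 K 2,
      (glSys chevE6 K).n (sim (nE6 p.1)) 1 * (glSys chevE6 K).n (sim (nE6 p.2)) 1 * x *
      ((glSys chevE6 K).n (sim (nE6 p.1)) 1 * (glSys chevE6 K).n (sim (nE6 p.2)) 1)⁻¹ ∈ (glSys chevE6 K).U →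
      x ∈ L :=
  U_le2 hK hp (fun r h h' => h1 r (by simp [h, h'])) fun r h h' => h2 r (by simp [h, h'])

theorem H_cases : ∀ g ∈ (glSys chevE6 K).H ⊓ twistedE6 K 2, ∃ t : K, t ≠ 0 ∧
    g = (glSys chevE6 K).h (sim (nE6 0)) t * (glSys chevE6 K).h (sim (nE6 5)) (t ^ 2) := by
  obtain ⟨C⟩ := exists_C hK
  rw [C.H_inf]
  rintro _ ⟨c, hc, rfl⟩
  obtain ⟨k5, k1, k4, k3, -, -⟩ := (mem_Tσ_E6 c).1 hc
  have h3 : ∀ z : Kˣ, z ^ 3 = 1 := fun z => by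
    have := pow_card_eq_one' (x := z)
    rwa [Nat.card_units, Nat.card_eq_fintype_card, hK] at this
  have e1 : ∀ z : Kˣ, z = z ^ 2 → z = 1 := fun z h => mul_left_cancel (a := z) (by rw [mul_one, ← pow_two, ← h])
  let b : Kˣ := c (nE6 2)
  let k : Ix chevE6 → Kˣ := (![b, 1, b ^ 2, 1, b, b ^ 2] : Fin 6 → Kˣ)
  have hk : k ∈ (gl_R3 (D := chevE6) (F := K)).hT.ker := by
    rw [ker_gl_hT]
    exact (mem_ker_E6 k).2 ⟨h3 _, rfl, rfl, rfl, rfl, rfl⟩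
  have e : c * k = (Pi.mulSingle (nE6 0) (c (nE6 0) * b) : Ix chevE6 → Kˣ) *
      (Pi.mulSingle (nE6 5) ((c (nE6 0) * b) ^ 2) : Ix chevE6 → Kˣ) := by
    have f1 : c (nE6 1) = 1 := e1 _ k1
    have f3 : c (nE6 3) = 1 := e1 _ k3
    have f2 : b * b ^ 2 = 1 := by rw [← pow_succ']; exact h3 b
    have f4 : c (nE6 4) * b = 1 := by rw [show c (nE6 4) = b ^ 2 from k4, ← pow_succ]; exact h3 b
    have f5 : c (nE6 5) * b ^ 2 = (c (nE6 0) * b) ^ 2 := by rw [show c (nE6 5) = c (nE6 0) ^ 2 from k5, mul_pow]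
    funext i
    fin_cases i
    · exact (mul_one _).symm
    · exact (mul_one _).trans (f1.trans (mul_one _).symm)
    · exact f2.trans (mul_one _).symm
    · exact (mul_one _).trans (f3.trans (mul_one _).symm)
    · exact f4.trans (mul_one _).symm
    · exact f5.trans (one_mul _).symm
  refine ⟨(c (nE6 0) * b : Kˣ), Units.ne_zero _, ?_⟩
  rw [← Units.val_pow_eq_pow_val, ← R3.hT_mulSingle gl_R3, ← R3.hT_mulSingle gl_R3, ← map_mul, ← e, map_mul,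
    MonoidHom.mem_ker.1 hk, mul_one]

/-- the elements of the torus lie in the twisted group -/
theorem h_mem {t : K} (ht : t ≠ 0) :
    (glSys chevE6 K).h (sim (nE6 0)) t * (glSys chevE6 K).h (sim (nE6 5)) (t ^ 2) ∈ twistedE6 K 2 := by
  obtain ⟨C⟩ := exists_C hK
  have := C.h_two_mem so3_E6 (by decide +kernel) (by decide +kernel) (Units.mk0 t ht)
  rwa [map_mul, R3.hT_mulSingle, R3.hT_mulSingle] at this

end Cfsg.Agent.TrX
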