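import Mathlib

/-! Central extensions of a subgroup that are stable under conjugation. -/

set_option autoImplicit false

namespace Cfsg.Agent.TrX
open Subgroup

variable {X G : Type*} [Group X] [Group G] {π : X →* G} {g g' : G}

/-- the elements whose images stay in the range under conjugation by `g` -/
def dom (π : X →* G) (g : G) : Subgroup X := (π.range.comap (MulAut.conj g).toMonoidHom).comap π

theorem mem_dom {x : X} : x ∈ dom π g ↔ g * π x * g⁻¹ ∈ π.range := Iff.rfl

/-- conjugation by `g` lifts to the extension and fixes its kernel -/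
def Stab (π : X →* G) (g : G) : Prop :=
  ∃ φ : dom π g →* X, (∀ x, π (φ x) = g * π x * g⁻¹) ∧ ∀ x : dom π g, π x = 1 → φ x = x

theorem Stab.mul (h : Stab π g) (h' : Stab π g')
    (k : ∀ x, g * g' * π x * (g * g')⁻¹ ∈ π.range → g' * π x * g'⁻¹ ∈ π.range) : Stab π (g * g') := by
  obtain ⟨φ, h1, h2⟩ := h
  obtain ⟨φ', h3, h4⟩ := h'
  have hle : dom π (g * g') ≤ dom π g' := fun x hx => k x hx
  have hm : ∀ x : dom π (g * g'), (φ'.comp (inclusion hle)) x ∈ dom π g := fun x => by
    have := mem_dom.1 x.2
    rw [mem_dom, MonoidHom.comp_apply, h3]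
    simpa [mul_assoc] using this
  refine ⟨φ.comp ((φ'.comp (inclusion hle)).codRestrict _ hm), fun x => ?_, fun x hx => ?_⟩
  · rw [MonoidHom.comp_apply, h1]
    change g * π (φ' _) * g⁻¹ = _
    rw [h3]; simp [mul_assoc]
  · have e : φ' (inclusion hle x) = x := h4 _ hx
    rw [MonoidHom.comp_apply, h2 _ ((congrArg π e).trans hx)]
    exact e

theorem stab_range (hc : π.ker ≤ center X) (hg : g ∈ π.range) : Stab π g := by
  obtain ⟨a, rfl⟩ := hg
  exact ⟨(MulAut.conj a).toMonoidHom.comp (Subgroup.subtype _), fun x => by simp, fun x hx => by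
    simp [mem_center_iff.1 (hc hx) a]⟩

end Cfsg.Agent.TrX
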