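import Mathlib
import Cfsg.Agent.TrX.Def
import Cfsg.Agent.Chev.TwE6

/-! Stability under all of ²E₆(2) follows from stability under the generators of `N`. -/

set_option autoImplicit false
set_option linter.unusedSectionVars false
set_option maxHeartbeats 400000
set_option maxRecDepth 100000

namespace Cfsg.Agent.TrX
open Cfsg.Lie Cfsg.Agent.Chev Cfsg.Agent.BN StSys Tw Subgroup

universe u

section gen
variable {D : ChevalleyDatum} [g : Good2 D] {F : Type*} [Field F] {G : Type*} [Group G]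
  {S : StSys D F G}

theorem conj_U_side {J : Set (Ix D)} {w : W D} (hp : ∀ i ∈ J, Pos (w • sim i)) {a n x : G}
    (ha : S.Mono a w) (hn : S.Mono n (w0 J)) (hx : x ∈ S.U)
    (h : a * n * x * (a * n)⁻¹ ∈ S.U) : n * x * n⁻¹ ∈ S.U := by
  have hm := ha.mul hn
  obtain ⟨y, hy, z, hz, rfl⟩ := exists_U_split (w * w0 J) hx
  have h1 : a * n * y * (a * n)⁻¹ ∈ S.U := hm.conj_mem (fun r hr => hr.2) hy
  have h2 : a * n * z * (a * n)⁻¹ = 1 := one_of_mem_B_V (S.U_le_B (by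
    have := mul_mem (inv_mem h1) h
    rwa [show (a * n * y * (a * n)⁻¹)⁻¹ * (a * n * (y * z) * (a * n)⁻¹) = a * n * z * (a * n)⁻¹ by
      group] at this)) (hm.conj_Uw hz)
  have h3 : z = 1 := by
    have : z = (a * n)⁻¹ * (a * n * z * (a * n)⁻¹) * (a * n) := by group
    rw [this, h2]; group
  rw [h3, mul_one]
  refine hn.conj_mem (fun r hr => ?_) hy
  change Pos (w0 J • r)
  by_cases hK : PhiK J r
  · exfalso
    have h4 := pos_smul_of_forall hp ((pos_ng _).mpr (not_pos_w0 hr.1 hK))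
      (phiK_ng.mpr ((phiK_smul (w0_mem J)).mpr hK))
    rw [pos_smul_ng, ← mul_smul] at h4
    exact h4 hr.2
  · exact (pos_smul_iff_of_not_phiK (w0_mem J) hK).mpr hr.1

variable {σ : Sym D} {T : Tw S σ} {A : Type} {O : Orb σ A} {K : Subgroup G}

theorem mono_w0_of (h : IsTw T O K) {a : A} {n : G} {w : W D} (hn : n ∈ K) (hN : n ∈ S.N)
    (hm : S.Mono n w) (hw : w ∈ WK (O.J a)) (h1 : w ≠ 1) : S.Mono n (w0 (O.J a)) := by
  rcases O.fold.eq_one_or (ρ_eq_of_mono (h.le hn) hN hm) hw with e | e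
  · exact absurd e h1
  · exact e ▸ hm

theorem stab_gen (h : IsTw T O K) {X : Type*} [Group X] (π : X →* K)
    (hc : π.ker ≤ center X) (hr : π.range = S.U.subgroupOf K)
    (hn : ∀ a, ∃ n : K, n.1 ∈ S.N ∧ S.Mono n (w0 (O.J a)) ∧ Stab π n)
    (h3 : ∀ g : K, g.1 ∈ S.H → Stab π g) (g : K) : Stab π g := by
  have hU : ∀ x, (π x : G) ∈ S.U := fun x => by
    have : π x ∈ π.range := ⟨x, rfl⟩
    rw [hr] at this; exact this
  have key : ∀ w (hw : w ∈ O.fold.C), ∀ a : K, a.1 ∈ S.N → S.Mono a w → Stab π a := by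
    intro w hw
    induction hw using O.ind with
    | h1 => exact fun a ha hm => h3 a (mem_H_of_mono ha hm)
    | hs b w hw hp ih =>
      intro a ha hm
      obtain ⟨n, h1, h2, h4⟩ := hn b
      have h5 : S.Mono ((a * n⁻¹ : K) : G) w := by
        have := hm.mul h2.inv
        rwa [mul_inv_cancel_right] at this
      have := (ih (a * n⁻¹) (mul_mem ha (inv_mem h1)) h5).mul h4 fun x hx => by
        rw [hr] at hx ⊢
        exact conj_U_side hp h5 h2 (hU x) hx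
      rwa [inv_mul_cancel_right] at this
  obtain ⟨w, hcl⟩ := exists_cell (h.le_grp g.2)
  have hw : w ∈ O.fold.C := ρ_eq_of_cell (h.le g.2) hcl
  obtain ⟨n, h1, h2, h4⟩ := h.exists_n hw
  obtain ⟨u, hu, z, hz, v, hv, e⟩ := h.exists_normal (h.le g.2) hcl h1 h2 h4
  have hvK : v ∈ K := h.Uw_le hw hv
  have hzK : z * n ∈ K := by
    have := K.mul_mem (K.mul_mem (K.inv_mem hu.2) g.2) (K.inv_mem hvK)
    rwa [e, show u⁻¹ * (u * z * n * v) * v⁻¹ = z * n by group] at this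
  have hu' : (⟨u, hu.2⟩ : K) ∈ π.range := by rw [hr]; exact hu.1
  have hv' : (⟨v, hvK⟩ : K) ∈ π.range := by rw [hr]; exact Uw_le_U w hv.2
  have e' : g = ⟨u, hu.2⟩ * (⟨z * n, hzK⟩ * ⟨v, hvK⟩) := Subtype.ext (by
    rw [e]; simp [mul_assoc])
  rw [e']
  refine (stab_range hc hu').mul ((key w hw ⟨z * n, hzK⟩ (mul_mem (S.H_le_N hz.2) h2)
    (by simpa using (mono_of_mem_H hz.2).mul h4)).mul (stab_range hc hv') fun x _ =>
      mul_mem (mul_mem hv' ⟨x, rfl⟩) (inv_mem hv')) fun x hx => ?_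
  have := mul_mem (mul_mem (inv_mem hu') hx) hu'
  simpa only [mul_inv_rev, mul_assoc, inv_mul_cancel_left, inv_mul_cancel, mul_one] using this

theorem SO_n_mem {r s : Rt D} (h : SO D r s) (S : StSys D F G) {K : Subgroup G} (ψ : F →+* F)
    (h1 : ∀ t, S.x r t * S.x s (ψ t) ∈ K) (h2 : ∀ t, S.x (ng r) t * S.x (ng s) (ψ t) ∈ K) :
    S.n r 1 * S.n s 1 ∈ K := by
  have key : ∀ t, S.n r t * S.n s (ψ t) ∈ K := fun t => by
    rw [StSys.n, StSys.n, mul3_comm (h.commute S (S.x_mem (by simp) _) (S.x_mem (by simp) _))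
      (h.x S _ _) (h.commute S (S.x_mem (by simp) _) (S.x_mem (by simp) _)), ← map_inv₀, ← map_neg]
    exact mul_mem (mul_mem (h1 _) (h2 _)) (h1 _)
  simpa using key 1

theorem sW_mul_ne_one {i j : Ix D} (h : i ≠ j) : (sW i * sW j : W D) ≠ 1 := fun e => by
  have h1 : Pos ((sW i * sW j : W D) • sim j) := by rw [e, one_smul]; exact pos_sim j
  have h2 : sW i = (sW j : W D) := by
    have := eq_inv_of_mul_eq_one_left e
    rwa [← w0_singleton j, w0_inv, w0_singleton] at this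
  exact h (sW_injective h2)

theorem sW_ne_one' (i : Ix D) : (sW i : W D) ≠ 1 := by
  rw [← w0_singleton]; exact w0_ne_one ⟨i, rfl⟩

end gen

attribute [local instance] good2E6

theorem stab_all {K : Type u} [Field K] [Fintype K] (hK : Fintype.card K = 4) {X : Type*} [Group X]
    (π : X →* twistedE6 K 2) (hc : π.ker ≤ center X)
    (hr : π.range = (glSys chevE6 K).U.subgroupOf (twistedE6 K 2))
    (h1 : ∀ i ∈ [(1 : Fin 6), 3], ∀ g : twistedE6 K 2,
      g.1 = (glSys chevE6 K).n (sim (nE6 i)) 1 → Stab π g)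
    (h2 : ∀ p ∈ [((0 : Fin 6), (5 : Fin 6)), (2, 4)], ∀ g : twistedE6 K 2,
      g.1 = (glSys chevE6 K).n (sim (nE6 p.1)) 1 * (glSys chevE6 K).n (sim (nE6 p.2)) 1 → Stab π g)
    (h3 : ∀ g : twistedE6 K 2, g.1 ∈ (glSys chevE6 K).H → Stab π g) : ∀ g, Stab π g := by
  obtain ⟨C⟩ := exists_CE6 (K := K) (q := 2) Nat.prime_two.prime.isPrimePow hK
  have one : ∀ (a : Fin 4) (i : Fin 6), i ∈ [(1 : Fin 6), 3] → orbE6.o (nE6 i) = a →
      ((sim (nE6 i) : Rt chevE6) : ℕ) ∈ [e6p2, e6m2, e6p4, e6m4] →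
      ((ng (sim (nE6 i)) : Rt chevE6) : ℕ) ∈ [e6p2, e6m2, e6p4, e6m4] →
      ∃ n : twistedE6 K 2, n.1 ∈ (glSys chevE6 K).N ∧
        (glSys chevE6 K).Mono n (w0 (orbE6.J a)) ∧ Stab π n := fun a i hi ha p1 p2 => by
    have hm : (glSys chevE6 K).n (sim (nE6 i)) 1 ∈ twistedE6 K 2 :=
      mul_mem (mul_mem (C.one_mem p1 (map_one _)) (C.one_mem p2 (by simp)))
        (C.one_mem p1 (map_one _))
    have hN := (glSys chevE6 K).n_mem_N (sim (nE6 i)) one_ne_zero
    exact ⟨⟨_, hm⟩, hN, mono_w0_of C.isTw hm hN ((glSys chevE6 K).mono_n_sim _ one_ne_zero)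
      (sW_mem_WK ha) (sW_ne_one' _), h1 i hi _ rfl⟩
  have two : ∀ (a : Fin 4) (p : Fin 6 × Fin 6), p ∈ [((0 : Fin 6), (5 : Fin 6)), (2, 4)] →
      orbE6.o (nE6 p.1) = a → orbE6.o (nE6 p.2) = a → p.1 ≠ p.2 →
      SO chevE6 (sim (nE6 p.1)) (sim (nE6 p.2)) →
      (((sim (nE6 p.1) : Rt chevE6) : ℕ), ((sim (nE6 p.2) : Rt chevE6) : ℕ)) ∈
        [(e6p1, e6p6), (e6m1, e6m6), (e6p3, e6p5), (e6m3, e6m5)] →
      (((ng (sim (nE6 p.1)) : Rt chevE6) : ℕ), ((ng (sim (nE6 p.2)) : Rt chevE6) : ℕ)) ∈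
        [(e6p1, e6p6), (e6m1, e6m6), (e6p3, e6p5), (e6m3, e6m5)] →
      ∃ n : twistedE6 K 2, n.1 ∈ (glSys chevE6 K).N ∧
        (glSys chevE6 K).Mono n (w0 (orbE6.J a)) ∧ Stab π n := fun a p hp ha hb hne so p1 p2 => by
    have hm := SO_n_mem so (glSys chevE6 K) C.ψ (C.two_mem p1) (C.two_mem p2)
    have hN := mul_mem ((glSys chevE6 K).n_mem_N (sim (nE6 p.1)) one_ne_zero)
      ((glSys chevE6 K).n_mem_N (sim (nE6 p.2)) one_ne_zero)
    exact ⟨⟨_, hm⟩, hN, mono_w0_of C.isTw hm hN (((glSys chevE6 K).mono_n_sim _ one_ne_zero).mul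
      ((glSys chevE6 K).mono_n_sim _ one_ne_zero)) (mul_mem (sW_mem_WK ha) (sW_mem_WK hb))
      (sW_mul_ne_one hne), h2 p hp _ rfl⟩
  refine stab_gen C.isTw π hc hr (fun a => ?_) h3
  fin_cases a
  · exact one _ 1 (by simp) (by decide +kernel) (by decide +kernel) (by decide +kernel)
  · exact one _ 3 (by simp) (by decide +kernel) (by decide +kernel) (by decide +kernel)
  · exact two _ (2, 4) (by simp) (by decide +kernel) (by decide +kernel) (by decide) so2_E6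
      (by decide +kernel) (by decide +kernel)
  · exact two _ (0, 5) (by simp) (by decide +kernel) (by decide +kernel) (by decide) so3_E6
      (by decide +kernel) (by decide +kernel)

end Cfsg.Agent.TrX
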