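import Mathlib
import Cfsg.Agent.Mult.TwE
import Cfsg.Agent.Schur.Prod

/-! The odd part of the Schur multiplier of `²E₆(2)` and the assembly of the multiplier. -/

set_option autoImplicit false
set_option linter.unusedSectionVars false

namespace Cfsg.Agent.TrX
open Subgroup Function Cfsg.Lie Cfsg.Agent.Chev Cfsg.Agent.BN StSys Tw Cfsg.Agent.H2.Schur Cfsg.Agent.Mult
universe u

theorem pb_card_ker {G : Type*} {H : Type*} [Group G] [Group H] {p : ℕ} (hp : p.Prime) (hG : PG p (⊤ : Subgroup G))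
    {ι : G →* H} (hι : Injective ι) {k : ℕ} (h : PB.{u} p ι.range k) {Γ : Type u} [Group Γ] [Finite Γ] {σ : Γ →* G}
    (hσ : IsStemExtension σ) (hc : ∀ z, σ z = 1 → PE p z → z = 1) : Nat.card σ.ker ∣ k := by
  have e : (ι.comp σ).ker = σ.ker := by ext; simp [hι.eq_iff' (map_one ι)]
  have := h Γ (ι.comp σ) ⟨e ▸ hσ.2.1, fun z hz => hc z (e.le hz)⟩
    (by rintro _ ⟨g, rfl⟩; obtain ⟨x, rfl⟩ := hσ.1 g; exact ⟨x, rfl⟩)
  have h2 := hG ((lf p (ι.comp σ) ι.range).map σ) fun x _ hx =>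
    let ⟨y, h1, h2⟩ := exists_lf hp (hσ.1 x) hx; ⟨y, mem_lf h1 ⟨_, rfl⟩, h2⟩
  rwa [e, inf_eq_left.2 (hσ.2.2.trans (commutator_le.2 fun a _ b _ => by
    obtain ⟨a', h3, h4⟩ := h2 (mem_top (σ a))
    obtain ⟨b', h5, h6⟩ := h2 (mem_top (σ b))
    rw [← comm_eq_of_map_eq hσ.2.1 h4 h6]
    exact mul_mem (mul_mem (mul_mem h3 h5) (inv_mem h3)) (inv_mem h5)))] at this

theorem card_ker_tw {D : ChevalleyDatum} [g : Good2 D] {F : Type*} [Field F] {σ : Sym D} {A : Type} {O : Orb σ A}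
    {p : ℕ} {G : Type*} [Group G] {S : StSys D F G} {T : Tw S σ} [Finite F] [Finite A] (hp : p.Prime) [CharP F p]
    {L : Subgroup G} (h : IsTw T O L) (e : L = T.Fx) (gen : L ≤ ⨆ a, LL T O a) {h3 : S.R3}
    {Z : Subgroup (Ix D → Fˣ)} (hN : ∀ a, Node.{u} T O p h3 Z a) {Γ : Type u} [Group Γ] [Finite Γ] {π : Γ →* L}
    (hπ : IsStemExtension π) (hc : ∀ z, π z = 1 → PE p z → z = 1) :
    Nat.card π.ker ∣ Nat.card ↥(Z ⊓ h3.hT.ker) := by
  subst e
  exact pb_card_ker hp (pg_tw hp gen).top (Subgroup.subtype_injective _)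
    (by rw [range_subtype]; exact pb_tw hp h h3 gen Z (fun a => (hN a).1) fun a => (hN a).2) hπ hc

attribute [local instance] good2E6

theorem card_ker_E6 {K : Type*} [Field K] [Fintype K] {q p : ℕ} (hp : p.Prime) [CharP K p] (C : CE6 K q) (hq : 0 < q)
    (hK : Fintype.card K = q ^ 2) {Γ : Type u} [Group Γ] [Finite Γ] {π : Γ →* twistedE6 K q}
    (hπ : IsStemExtension π) (hc : ∀ z, π z = 1 → PE p z → z = 1) : Nat.card π.ker ∣ Nat.gcd 3 (q + 1) := by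
  have h := C.eq_Fx ▸ C.isTw
  have hk : ∀ a, ∀ c ∈ Tσ (F := K) symE6 fun _ => q, (∀ i, orbE6.o i ≠ a → c i = 1) → gl_R3.hT c = 1 → c = 1 :=
    fun a c _ h1 h2 => by
      obtain ⟨-, k1, k2, k3, k4, k5⟩ := (mem_ker_E6 c).1 (ker_gl_hT.le h2)
      have k0 : c (nE6 0) = 1 := by
        by_cases e : a = 3
        · exact k4.symm.trans (h1 (nE6 4) (by rw [e]; decide))
        · exact h1 _ (Ne.symm e)
      have k6 : c (nE6 0) ^ 2 = 1 := by rw [k0, one_pow]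
      funext i
      fin_cases i
      exacts [k0, k1, k2.trans k6, k3, k4.trans k0, k5.trans k6]
  refine (card_ker_tw hp C.isTw C.eq_Fx C.gen (h3 := gl_R3) (Z := Tσ symE6 fun _ => q) (fun a => ?_) hπ hc).trans
    (by rw [ker_gl_hT, card_Z_E6 hq hK])
  fin_cases a
  exacts [node1 hp h (hk _) C.φ_pow J0_E6 (π_E6 1) rfl (C.φ_sim _), node1 hp h (hk _) C.φ_pow J1_E6 (π_E6 3) rfl (C.φ_sim _),
    node2 hp h (hk _) C.φ_pow J2_E6 (by decide) (π_E6 2) (π_E6 4) rfl rfl so2_E6 (C.φ_sim _) (C.φ_sim _) C.ψψ,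
    node2 hp h (hk _) C.φ_pow J3_E6 (by decide) (π_E6 0) (π_E6 5) rfl rfl so3_E6 (C.φ_sim _) (C.φ_sim _) C.ψψ]

/-- the odd part of the kernel of a stem extension -/
theorem odd_part {G : Type*} [Group G] {r : ℕ} (hr : r.Prime)
    (h : ∀ (Γ : Type u) [Group Γ] [Finite Γ] (π : Γ →* G), IsStemExtension π → (∀ z, π z = 1 → PE 2 z → z = 1) →
      Nat.card π.ker ∣ r) {Γ : Type u} [Group Γ] [Finite Γ] {σ : Γ →* G} (hσ : IsStemExtension σ) :
    ∃ g : σ.ker, g ^ r = 1 ∧ ∀ x : σ.ker, ∀ m, m.Coprime 2 → x ^ m = 1 → x ∈ zpowers g := by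
  have := Fact.mk hr
  let N : Subgroup Γ :=
    { carrier := {z | z ∈ σ.ker ∧ PE 2 z}
      mul_mem' := fun {a b} ha hb => ⟨mul_mem ha.1 hb.1, ha.2.mul hb.2 (mem_center_iff.1 (hσ.2.1 hb.1) a)⟩
      one_mem' := ⟨one_mem _, .one⟩
      inv_mem' := fun {a} ha => ⟨inv_mem ha.1, ha.2.inv⟩ }
  have hN : N ≤ σ.ker := fun _ h => h.1
  have : N.Normal := normal_of_le_center (hN.trans hσ.2.1)
  have h1 := h _ _ (stem_quotient (cext_of_stem hσ) N hN (by rw [skr_eq_ker hσ, sup_eq_right.2 hN])) fun z hz ⟨n, hn⟩ => by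
    induction z using QuotientGroup.induction_on with | H z => ?_
    rw [← QuotientGroup.mk_pow, QuotientGroup.eq_one_iff] at hn
    exact (QuotientGroup.eq_one_iff z).2 ⟨hz, hn.2.of_pow⟩
  let T : Subgroup σ.ker :=
    { carrier := {z | ∃ m : ℕ, m.Coprime 2 ∧ z ^ m = 1}
      mul_mem' := fun {a b} ⟨m, h1, h2⟩ ⟨n, h3, h4⟩ => ⟨m * n, h1.mul_left h3, by
        rw [Commute.mul_pow (Subtype.ext (mem_center_iff.1 (hσ.2.1 b.2) a)), pow_mul, h2, mul_comm m, pow_mul, h4]; simp⟩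
      one_mem' := ⟨1, by simp, by simp⟩
      inv_mem' := fun {a} ⟨m, h1, h2⟩ => ⟨m, h1, by rw [inv_pow, h2, inv_one]⟩ }
  let f : T →* (QuotientGroup.lift N σ hN).ker :=
    ((QuotientGroup.mk' N).comp (σ.ker.subtype.comp T.subtype)).codRestrict _ fun x => x.1.2
  have hf : Injective f := (injective_iff_map_eq_one f).2 fun ⟨x, m, k1, k2⟩ hx => by
    obtain ⟨-, n, hn⟩ := (QuotientGroup.eq_one_iff (N := N) x.1).1 (congrArg Subtype.val hx)
    exact Subtype.ext (Subtype.ext (Schur.eq_one_of_coprime (k1.pow_right n) (congrArg Subtype.val k2) hn))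
  have h2 := (card_dvd_of_injective f hf).trans h1
  obtain ⟨g, hg⟩ := (isCyclic_of_card_dvd_prime h2).exists_generator
  refine ⟨g, ?_, fun x m k1 k2 => ?_⟩
  · obtain ⟨c, hc⟩ := h2
    rw [hc, pow_mul, ← coe_pow, pow_card_eq_one', coe_one, one_pow]
  · obtain ⟨j, hj⟩ := hg ⟨x, m, k1, k2⟩
    exact ⟨j, congrArg Subtype.val hj⟩

theorem final {K : Type u} [Field K] [Fintype K] (hK : Fintype.card K = 4)
    (h2 : Schur.PGen (twistedE6 K 2) 2 [1, 1]) (h4 : 4 ∣ Nat.card (Mult (twistedE6 K 2))) :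
    HasSchurMultiplier (twistedE6 K 2) (Multiplicative (ZMod 3 × ZMod 2 × ZMod 2)) := by
  have hq : IsPrimePow 2 := Nat.prime_two.isPrimePow
  have hK' : Fintype.card K = 2 ^ 2 := hK
  have := Fact.mk Nat.prime_two
  have : CharP K 2 := charP_of_card_eq_prime_pow hK'
  obtain ⟨C⟩ := exists_CE6 hq hK'
  have key := fun (Γ : Type _) [Group Γ] [Finite Γ] (σ : Γ →* twistedE6 K 2) (hσ : IsStemExtension σ) =>
    odd_part Nat.prime_three (fun Γ _ _ π h1 h2 => card_ker_E6 Nat.prime_two C two_pos hK' h1 h2) hσ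
  have h3 : Schur.PGen (twistedE6 K 2) 3 [1] := fun Γ _ _ σ hσ => by
    obtain ⟨g, k1, k2⟩ := key Γ σ hσ
    exact ⟨fun _ => g, fun i hi => by
      obtain rfl : i = 0 := by simpa using hi
      simpa using k1, fun x a hx => zpowers_le.2 (Schur.mem_spanL (fun _ => g) (i := 0) (by simp))
        (k2 x _ (Nat.Coprime.pow_left a (by norm_num)) hx)⟩
  refine Schur.hasSchur_of (m := 12) (by simp) (Schur.up_three h3 h2 fun p hp => ?_) ?_
  · by_cases e3 : p = 3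
    · exact .inl e3
    by_cases e2 : p = 2
    · exact .inr (.inl e2)
    refine .inr (.inr fun Γ _ _ σ hσ => ⟨fun _ => 1, by simp, fun x a hx => ?_⟩)
    obtain ⟨g, k1, k2⟩ := key Γ σ hσ
    obtain ⟨j, rfl⟩ := k2 x _ (Nat.Coprime.pow_left a ((Nat.coprime_primes hp Nat.prime_two).2 e2)) hx
    rw [Schur.eq_one_of_coprime (Nat.Coprime.pow_left a ((Nat.coprime_primes hp Nat.prime_three).2 e3)) hx
      (by rw [← zpow_natCast, ← zpow_mul, mul_comm, zpow_mul, zpow_natCast, k1, one_zpow])]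
    exact one_mem _
  · obtain ⟨Γ, _, _, σ, hσ, ⟨e⟩⟩ := (has_mult (Q := twistedE6 K 2)).1
    refine ⟨Γ, _, inferInstance, σ, hσ, ?_⟩
    rw [Nat.card_congr e.toEquiv]
    exact Nat.le_of_dvd Nat.card_pos (Nat.Coprime.mul_dvd_of_dvd_of_dvd (m := 3) (n := 4) (by norm_num)
      (E6.dvd_card hq hK' Nat.prime_two) h4)

end Cfsg.Agent.TrX
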