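import Mathlib
import Cfsg.Agent.TrX.Def
import Cfsg.Agent.H2.Schur6

/-! A stable stem extension of a subgroup whose index is prime to the kernel gives a stem quotient
of the Schur multiplier of the whole group (corestriction of the extension). -/

set_option autoImplicit false

namespace Cfsg.Agent.TrX
open Subgroup Cfsg.Agent.H2.Schur
open scoped IsMulCommutative

universe u

/-- The induced extension: a group element with lifts of all its coset cocycle values. -/
@[ext] structure Ind {X : Type} {G Ω : Type u} [Group X] [Group G] [MulAction G Ω] (π : X →* G)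
    (s : Ω → G) where
  g : G
  f : Ω → X
  h : ∀ ω, π (f ω) = (s (g • ω))⁻¹ * g * s ω

variable {X : Type} {G Ω : Type u} [Group X] [Group G] [MulAction G Ω] {π : X →* G} {s : Ω → G}

namespace Ind

instance : Mul (Ind π s) := ⟨fun a b => ⟨a.g * b.g, fun ω => a.f (b.g • ω) * b.f ω, fun ω => by
  rw [map_mul, a.h, b.h, mul_smul]; group⟩⟩

instance : One (Ind π s) := ⟨⟨1, fun _ => 1, fun ω => by simp⟩⟩

instance : Inv (Ind π s) := ⟨fun a => ⟨a.g⁻¹, fun ω => (a.f (a.g⁻¹ • ω))⁻¹, fun ω => by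
  rw [map_inv, a.h, smul_inv_smul]; group⟩⟩

@[simp] theorem mul_g (a b : Ind π s) : (a * b).g = a.g * b.g := rfl
@[simp] theorem mul_f (a b : Ind π s) (ω : Ω) : (a * b).f ω = a.f (b.g • ω) * b.f ω := rfl
@[simp] theorem one_g : (1 : Ind π s).g = 1 := rfl
@[simp] theorem one_f (ω : Ω) : (1 : Ind π s).f ω = 1 := rfl
@[simp] theorem inv_g (a : Ind π s) : (a⁻¹).g = a.g⁻¹ := rfl
@[simp] theorem inv_f (a : Ind π s) (ω : Ω) : (a⁻¹).f ω = (a.f (a.g⁻¹ • ω))⁻¹ := rfl

instance : Group (Ind π s) := Group.ofLeftAxioms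
  (fun a b c => Ind.ext (mul_assoc _ _ _) (funext fun ω => by simp [mul_smul, mul_assoc]))
  (fun a => Ind.ext (one_mul _) (funext fun ω => by simp))
  (fun a => Ind.ext (inv_mul_cancel _) (funext fun ω => by simp))

/-- projection to the group -/
def pr : Ind π s →* G := MonoidHom.mk' (fun a => a.g) fun _ _ => rfl

theorem ker_f {a : Ind π s} (h : a.g = 1) (ω : Ω) : a.f ω ∈ π.ker := by
  rw [MonoidHom.mem_ker, a.h, h]; simp

end Ind

open Classical in
/-- an element read in the centre -/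
noncomputable def toC (x : X) : center X := if h : x ∈ center X then ⟨x, h⟩ else 1

theorem coe_toC {x : X} (h : x ∈ center X) : (toC x : X) = x := by simp [toC, h]

theorem toC_mul {x y : X} (h : x ∈ center X) (h' : y ∈ center X) : toC (x * y) = toC x * toC y :=
  Subtype.ext (by rw [coe_mul, coe_toC h, coe_toC h', coe_toC (mul_mem h h')])

variable [Fintype Ω]

/-- product of the components -/
noncomputable def nu (a : Ind π s) : center X := ∏ ω, toC (a.f ω)

theorem nu_mul (hc : π.ker ≤ center X) {a b : Ind π s} (ha : a.g = 1) (hb : b.g = 1) :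
    nu (a * b) = nu a * nu b := by
  rw [nu, nu, nu, ← Finset.prod_mul_distrib]
  refine Finset.prod_congr rfl fun ω _ => ?_
  rw [Ind.mul_f, hb, one_smul, toC_mul (hc (Ind.ker_f ha _)) (hc (Ind.ker_f hb _))]

theorem nu_one : nu (1 : Ind π s) = 1 :=
  Finset.prod_eq_one fun _ _ => Subtype.ext (coe_toC (one_mem (center X)))

theorem nu_conj (hc : π.ker ≤ center X) {a : Ind π s} (ha : a.g = 1) (e : Ind π s) :
    nu (e * a * e⁻¹) = nu a := by
  rw [nu, nu, ← Equiv.prod_comp (MulAction.toPerm e.g⁻¹) fun ω => toC (a.f ω)]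
  refine Finset.prod_congr rfl fun ω _ => congrArg toC ?_
  simp only [Ind.mul_f, Ind.inv_f, Ind.inv_g, ha, one_smul, MulAction.toPerm_apply]
  rw [mem_center_iff.1 (hc (Ind.ker_f ha _)), mul_inv_cancel_right]

theorem nu_inv (hc : π.ker ≤ center X) {a : Ind π s} (ha : a.g = 1) : nu a⁻¹ = (nu a)⁻¹ := by
  rw [eq_inv_iff_mul_eq_one, ← nu_mul hc (by simp [ha]) ha, inv_mul_cancel, nu_one]

/-- the elements over the identity with trivial product -/
def nk (hc : π.ker ≤ center X) (s : Ω → G) : Subgroup (Ind π s) where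
  carrier := {a | a.g = 1 ∧ nu a = 1}
  mul_mem' := fun {a b} ha hb => ⟨by simp [ha.1, hb.1], by rw [nu_mul hc ha.1 hb.1, ha.2, hb.2, one_mul]⟩
  one_mem' := ⟨rfl, nu_one⟩
  inv_mem' := fun {a} ha => ⟨by simp [ha.1], by rw [nu_inv hc ha.1, ha.2, inv_one]⟩

instance (hc : π.ker ≤ center X) : (nk hc s).Normal :=
  ⟨fun a ha e => ⟨by simp [ha.1], (nu_conj hc ha.1 e).trans ha.2⟩⟩

theorem dvd_of_lift [Finite G] (hc : π.ker ≤ center X) (hk : π.ker ≤ commutator X)
    (hs : ∀ g ω, (s (g • ω))⁻¹ * g * s ω ∈ π.range) (hcop : (Nat.card π.ker).Coprime (Fintype.card Ω))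
    (Φ : X →* Ind π s) (h1 : ∀ x, (Φ x).g = π x) (h2 : ∀ a ∈ π.ker, ∀ ω, (Φ a).f ω = a) :
    Nat.card π.ker ∣ Nat.card (Mult G) := by
  let ξ : Ind π s ⧸ nk hc s →* G := QuotientGroup.lift _ Ind.pr fun a ha => ha.1
  have hξ : CExt ξ := by
    refine ⟨fun g => ?_, fun k hk => mem_center_iff.2 fun e => ?_⟩
    · choose f hf using hs g
      exact ⟨QuotientGroup.mk ⟨g, f, hf⟩, rfl⟩
    · obtain ⟨k, rfl⟩ := QuotientGroup.mk_surjective k
      obtain ⟨e, rfl⟩ := QuotientGroup.mk_surjective e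
      have h3 : k.g = 1 := hk
      rw [← QuotientGroup.mk_mul, ← QuotientGroup.mk_mul, QuotientGroup.eq,
        show (e * k)⁻¹ * (k * e) = k⁻¹ * (e⁻¹ * k * e⁻¹⁻¹) by group]
      exact ⟨by simp [h3], by
        rw [nu_mul hc (by simp [h3]) (by simp [h3]), nu_conj hc h3, nu_inv hc h3, inv_mul_cancel]⟩
  let η : X →* Ind π s ⧸ nk hc s := (QuotientGroup.mk' _).comp Φ
  let ψ : π.ker →* skr ξ := (η.comp π.ker.subtype).codRestrict _ fun a =>
    ⟨(h1 a).trans a.2, map_mem_commutator η (hk a.2)⟩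
  refine (card_dvd_of_injective ψ ((injective_iff_map_eq_one ψ).2 fun a ha => ?_)).trans
    (card_skr_dvd_mult hξ)
  have h3 : Φ a ∈ nk hc s := (QuotientGroup.eq_one_iff _).1 (congrArg Subtype.val ha)
  have h4 := congrArg Subtype.val h3.2
  simp only [nu, h2 a a.2, Finset.prod_const, Finset.card_univ, SubgroupClass.coe_pow,
    coe_toC (hc a.2)] at h4
  have h5 : orderOf a ∣ Fintype.card Ω := orderOf_dvd_of_pow_eq_one (Subtype.ext h4)
  exact orderOf_eq_one_iff.1 (Nat.eq_one_of_dvd_coprimes hcop (orderOf_dvd_natCard a) h5)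

theorem dvd_mult {G : Type u} [Group G] [Finite G] {X : Type} [Group X] [Finite X] (π : X →* G)
    (hc : π.ker ≤ center X) (hk : π.ker ≤ commutator X)
    (hcop : (Nat.card π.ker).Coprime π.range.index) (hst : ∀ g, Stab π g) :
    Nat.card π.ker ∣ Nat.card (Mult G) := by
  have := Fintype.ofFinite (G ⧸ π.range)
  choose φ φ1 φ2 using hst
  let ρ : G ⧸ π.range → G ⧸ π.range := fun ω =>
    (Quotient.mk (MulAction.orbitRel π.range (G ⧸ π.range)) ω).out
  have ρ1 : ∀ ω, ∃ x : X, π x • ρ ω = ω := fun ω => by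
    obtain ⟨⟨_, x, rfl⟩, hx⟩ : ω ∈ MulAction.orbit π.range (ρ ω) :=
      MulAction.orbitRel_apply.1 ((MulAction.orbitRel π.range (G ⧸ π.range)).symm' (Quotient.mk_out ω))
    exact ⟨x, hx⟩
  have ρ2 : ∀ (x : X) ω, ρ (π x • ω) = ρ ω := fun x ω =>
    congrArg Quotient.out (Quotient.sound (MulAction.orbitRel_apply.2 ⟨⟨π x, x, rfl⟩, rfl⟩))
  choose y hy using ρ1
  let s : G ⧸ π.range → G := fun ω => π (y ω) * (ρ ω).out
  have s1 : ∀ ω, (s ω : G ⧸ π.range) = ω := fun ω => by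
    conv_rhs => rw [← hy ω, ← (ρ ω).out_eq']
    rfl
  have hs : ∀ g ω, (s (g • ω))⁻¹ * g * s ω ∈ π.range := fun g ω => by
    rw [mul_assoc, ← QuotientGroup.eq, s1]
    conv_lhs => rw [← s1 ω]
    rfl
  have hd : ∀ (x : X) ω, (y (π x • ω))⁻¹ * x * y ω ∈ dom π ((ρ ω).out)⁻¹ := fun x ω => by
    have := hs (π x) ω
    simp only [s, ρ2] at this
    rw [mem_dom]
    convert this using 1
    simp only [map_mul, map_inv]
    group
  have φc : ∀ {g g' : G} (_ : g = g') (x : X) (h : x ∈ dom π g) (h' : x ∈ dom π g'),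
      φ g ⟨x, h⟩ = φ g' ⟨x, h'⟩ := by
    rintro g _ rfl x h h'
    rfl
  let F : X → Ind π s := fun x => ⟨π x, fun ω => φ _ ⟨_, hd x ω⟩, fun ω => by
    rw [φ1]
    simp only [s, ρ2, map_mul, map_inv]
    group⟩
  refine dvd_of_lift hc hk hs (by rwa [← Nat.card_eq_fintype_card, ← index_eq_card])
    (MonoidHom.mk' F fun x x' => Ind.ext (map_mul π x x') (funext fun ω => ?_)) (fun _ => rfl)
    fun a ha ω => ?_
  · have e : ((ρ (π x' • ω)).out)⁻¹ = ((ρ ω).out)⁻¹ := by rw [ρ2]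
    show φ _ ⟨_, hd (x * x') ω⟩ = φ _ ⟨_, hd x (π x' • ω)⟩ * φ _ ⟨_, hd x' ω⟩
    rw [φc e _ (hd x (π x' • ω)) (e ▸ hd x (π x' • ω)), ← map_mul]
    refine congrArg _ (Subtype.ext ?_)
    simp only [coe_mul, map_mul, mul_smul]
    group
  · have e : (y (π a • ω))⁻¹ * a * y ω = a := by
      rw [MonoidHom.mem_ker.1 ha, one_smul, mem_center_iff.1 (hc ha), inv_mul_cancel_right]
    show φ _ ⟨_, hd a ω⟩ = a
    rw [φ2 _ _ ((congrArg π e).trans ha)]
    exact e

end Cfsg.Agent.TrX
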