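import Mathlib

/-! Cyclic extensions of degree two. -/

set_option autoImplicit false

namespace Cfsg.Agent.TrX
open Subgroup

/-- the elements `t ^ b * x` of an extension of degree two -/
structure E2 {X : Type} [Group X] (α : X →* X) (w : X) (h1 : α w = w)
    (h2 : ∀ g, w * α (α g) = g * w) where
  b : Bool
  x : X

namespace E2
variable {X : Type} [Group X] {α : X →* X} {w : X} {h1 : α w = w} {h2 : ∀ g, w * α (α g) = g * w}

/-- the underlying set -/
def toProd : E2 α w h1 h2 ≃ Bool × X := ⟨fun p => (p.b, p.x), fun p => ⟨p.1, p.2⟩, fun _ => rfl, fun _ => rfl⟩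

instance : Mul (E2 α w h1 h2) :=
  ⟨fun p q => ⟨xor p.b q.b, (if p.b && q.b then w else 1) * (if q.b then α p.x else p.x) * q.x⟩⟩
instance : One (E2 α w h1 h2) := ⟨⟨false, 1⟩⟩
instance : Inv (E2 α w h1 h2) := ⟨fun p => ⟨p.b, if p.b then (α p.x)⁻¹ * w⁻¹ else p.x⁻¹⟩⟩

theorem mul_def (a b : Bool) (x y : X) : (⟨a, x⟩ * ⟨b, y⟩ : E2 α w h1 h2) =
    ⟨xor a b, (if a && b then w else 1) * (if b then α x else x) * y⟩ := rfl
theorem one_def : (1 : E2 α w h1 h2) = ⟨false, 1⟩ := rfl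
theorem inv_def (a : Bool) (x : X) : ((⟨a, x⟩ : E2 α w h1 h2)⁻¹) =
    ⟨a, if a then (α x)⁻¹ * w⁻¹ else x⁻¹⟩ := rfl

instance : Group (E2 α w h1 h2) := Group.ofLeftAxioms
  (by
    rintro ⟨a, x⟩ ⟨b, y⟩ ⟨c, z⟩
    have h3 : ∀ g k, w * (α (α g) * k) = g * (w * k) := fun g k => by
      rw [← mul_assoc, h2, mul_assoc]
    cases a <;> cases b <;> cases c <;> simp [mul_def, mul_assoc, h1, h3])
  (by rintro ⟨a, x⟩; cases a <;> simp [mul_def, one_def])
  (by
    rintro ⟨a, x⟩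
    have h3 : α (α x) = w⁻¹ * x * w := by rw [mul_assoc, ← h2, inv_mul_cancel_left]
    cases a <;> simp [mul_def, one_def, inv_def, h1, h3, mul_assoc])

end E2

theorem ext2 {X : Type} [Group X] [Finite X] (α : X →* X) (w : X) (h1 : α w = w)
    (h2 : ∀ g, w * α (α g) = g * w) : ∃ (Y : Type) (_ : Group Y) (ι : X →* Y) (t : Y),
    Function.Injective ι ∧ Nat.card Y = 2 * Nat.card X ∧ (∀ g, ι g * t = t * ι (α g)) ∧
      t * t = ι w ∧ ι.range ⊔ zpowers t = ⊤ := by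
  let ι : X →* E2 α w h1 h2 := MonoidHom.mk' (fun x => ⟨false, x⟩) fun x y => by simp [E2.mul_def]
  have hι : ∀ x, ι x = ⟨false, x⟩ := fun _ => rfl
  refine ⟨E2 α w h1 h2, inferInstance, ι, ⟨true, 1⟩, fun x y h => congrArg E2.x h, ?_,
    fun g => by simp [hι, E2.mul_def], by simp [hι, E2.mul_def], ?_⟩
  · rw [Nat.card_congr E2.toProd, Nat.card_prod]; simp
  · rw [eq_top_iff]
    rintro ⟨a, x⟩ -
    cases a
    · exact mem_sup_left ⟨x, rfl⟩
    · have : (⟨true, x⟩ : E2 α w h1 h2) = ⟨true, 1⟩ * ι x := by simp [hι, E2.mul_def]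
      rw [this]
      exact mul_mem (mem_sup_right (mem_zpowers _)) (mem_sup_left ⟨x, rfl⟩)

end Cfsg.Agent.TrX
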